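import Cfsg.Agent.H995.U33.C1

/-!
# The `3510` transpositions of `C(d₁, d₂)` (helper995)

For two transpositions of the Baby Monster with colour `3` (product of order 3) exactly `3510` transpositions have
colour `1` (product `2B`) with both.
-/

set_option autoImplicit false
set_option linter.constructorNameAsVariable false

namespace Cfsg.Agent.H995.U33

open Cfsg.Agent.BabyM.Model Cfsg.Agent.BabyM.Conc Cfsg.Agent.BabyM.Inst Cfsg.Agent.BabyM.TransInv
  Cfsg.Agent.BabyM.TransOrd Cfsg.Agent.H995.BSch Cfsg.Agent.H995.BSchVal Cfsg.Agent.H816.IMEig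
  Cfsg.Agent.H816.IMEig.Col Cfsg.Agent.H995.IMB

/-- **The number**, points of the scheme. -/
theorem count_pair {x y : X M} (h : cX M x y = 3) :
    Nat.card {z : X M // cX M x z = 1 ∧ cX M y z = 1} = 3510 := by
  have := finX
  obtain ⟨z₀, h1, h2⟩ := exists_z
  have hc := sch.isCol BabyM.Instance.all BabyM.Instance.tr
  have h3 := hc.nn_mul (x₀ := QuotientGroup.mk 1) (z₀ := z₀) x y 1
  rw [h, h1] at h3
  have h4 : kk (cX M) (QuotientGroup.mk 1) 3 = 2370830336 := kk_three _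
  have h5 : kk (cX M) (QuotientGroup.mk 1) 1 = 3968055 := by
    have h4 := kk_eq_sum (c := cX M) (QuotientGroup.mk 1) z₀ 1
    have h5 : ∀ w, tt (cX M) (QuotientGroup.mk 1) z₀ 1 w = t 1 w := fun w => h2 1 w
    simp only [h5] at h4
    rw [h4, kk_one]
  have h6 : tt (cX M) (QuotientGroup.mk 1) z₀ 3 1 = 2097152 := h2 3 1
  rw [h4, h5, h6] at h3
  have h7 : Nat.card {z : X M // cX M x z = 1 ∧ cX M y z = 1} = Col.nn (cX M) 1 x y 1 := by
    unfold Col.nn
    congr 2
    funext z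
    rw [hc.symm y z]
  rw [h7]
  omega

/-- **The number**, signed axes. -/
theorem count_axes {x y : V} (hx : x ∈ M.D) (hy : y ∈ M.D) (h : col M x y = 3) :
    {e | e ∈ M.D ∧ col M x e = 1 ∧ col M y e = 1}.ncard = 7020 := by
  obtain ⟨a, ha, rfl⟩ := (BabyM.Instance.all.D_eq x).1 hx
  obtain ⟨b, hb, rfl⟩ := (BabyM.Instance.all.D_eq y).1 hy
  have h1 := count_pair (x := QuotientGroup.mk ⟨a, ha⟩) (y := QuotientGroup.mk ⟨b, hb⟩)
    (by rw [cX_mk BabyM.Instance.all]; exact h)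
  rw [ncard_two BabyM.Instance.all (fun e => col M (a M.d₀) e = 1 ∧ col M (b M.d₀) e = 1)]
  · have h2 : ∀ z : X M, (cX M (QuotientGroup.mk ⟨a, ha⟩) z = 1 ∧ cX M (QuotientGroup.mk ⟨b, hb⟩) z = 1) ↔
        (col M (a M.d₀) (vx M z) = 1 ∧ col M (b M.d₀) (vx M z) = 1) := by
      intro z
      unfold cX
      rw [col_pm BabyM.Instance.all (vx_mem BabyM.Instance.all _) (vx_mk (M := M) ⟨a, ha⟩) (pm.refl _),
        col_pm BabyM.Instance.all (vx_mem BabyM.Instance.all _) (vx_mk (M := M) ⟨b, hb⟩) (pm.refl _)]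
    simp only [h2] at h1
    rw [h1]
  · rintro e he ⟨h3, h4⟩
    have h5 : pm e (-e) := Or.inr (neg_neg e).symm
    exact ⟨by rw [← h3]; exact (col_pm BabyM.Instance.all hx (pm.refl _) h5).symm,
      by rw [← h4]; exact (col_pm BabyM.Instance.all hy (pm.refl _) h5).symm⟩

end Cfsg.Agent.H995.U33
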